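import Cfsg.Agent.H6.PG

set_option autoImplicit false
set_option maxRecDepth 100000
set_option Elab.async false

namespace Cfsg.H6.HNR.N

def R : List (List ℕ) := [[2,2,2,2,2,2,2,2], [1,2,2,2,2,1,2,2,2,2], [1,2,1,3,1,2,1,3,1,2,1,3], [1,2,2,1,3,3,1,2,2,1,3,3,1,2,2,1,3,3], [1,2,1,2,1,2,1,2,1,2,1,2,1,2,1,2,1,2,1,2], [1,2,1,2,2,1,2,1,2,2,1,2,1,2,2,1,2,1,2,2,1,2,1,2,2,1,2,1,2,2], [1,2,1,2,1,3,1,3,1,2,1,2,1,3,1,3,1,2,1,2,1,3,1,3,1,2,1,2,1,3,1,3], [1,2,1,4,1,3,1,2,1,4,1,3], [1,2,4,1,4,3,1,2,4,1,4,3], [1,2,4,2,4,2,4,1,2,4,2,4,2,4], [1,4,2,2,2,2,4,1,4,2,2,2,2,4], [1,2,2,1,3,4,1,4,1,2,2,1,3,4,1,4], [1,2,2,4,1,2,2,4,1,2,2,4,1,2,2,4], [1,3,3,3,4,2,2,4,1,3,3,3,4,2,2,4], [1,2,1,3,4,3,4,3,3,1,2,1,3,4,3,4,3,3], [1,2,4,2,4,3,3,3,4,1,2,4,2,4,3,3,3,4], [1,3,4,1,3,4,1,3,4,1,3,4,1,3,4,1,3,4],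 [1,3,4,3,4,3,4,1,4,1,3,4,3,4,3,4,1,4], [1,2,1,3,3,4,2,1,2,1,3,3,4,2,1,2,1,3,3,4,2], [1,2,2,1,3,4,1,2,2,1,3,4,1,2,2,1,3,4,1,2,2,1,3,4], [1,2,2,2,4,1,3,4,1,2,2,2,4,1,3,4,1,2,2,2,4,1,3,4], [1,2,1,2,2,1,2,2,4,1,2,1,2,2,1,2,2,4,1,2,1,2,2,1,2,2,4], [1,1], [4,4]]

def X : List (List ℕ) := [[1], [2], [4]]

/-- The presented group. -/
abbrev Grp : Type := PG 17213620480 R

def ev : ℕ → Grp := pgEv 17213620480 R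

theorem hev : Good ev 17213620480 := pg_good _ _

theorem hR : Rels ev R := pg_rels _ _

theorem hX : gen ev X = ⊤ := pg_gen (m := 5) (by decide +kernel)

theorem lift {G : Type*} [Group G] {ev' : ℕ → G} (h : Good ev' 17213620480) (h' : Rels ev' R) :
    ∃ φ : Grp →* G, ∀ l, φ (ev l) = ev' l := pg_lift h h'

end Cfsg.H6.HNR.N
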