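import Cfsg.Agent.H6.HNR.N.Pres
import Cfsg.Agent.H6.HNR.N.Chk0

set_option autoImplicit false
set_option maxRecDepth 100000
set_option Elab.async false

namespace Cfsg.H6.HNR.N

theorem ptOK : PtOK img 120 LS EQS := ptOK_of_chk fun p h1 h2 => by
  rw [← ptU_eq]
  exact (allR_range p0 (by norm_num : 0 + 120 = 120)) p h1 h2

theorem hrep : repOK 5 17213620480 LS EQS D HNR.N.R = true := by decide +kernel

theorem rep : Good (evR img 120 5) 17213620480 ∧ Rels (evR img 120 5) HNR.N.R ∧
    IsAct (MonoidHom.id _) (evR img 120 5) img 120 5 := rep_sound ptOK hrep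


end Cfsg.H6.HNR.N
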